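import Cfsg.Agent.Lib.KnownSimple.G23Lab.Data

set_option autoImplicit false
set_option maxRecDepth 100000

namespace Cfsg.Agent.Lib.KnownSimple.G23Lab

open Cfsg.Agent.Lib.KnownSimple.Lab Cfsg.Agent.Lib.KnownSimple.G23Lab Dat

theorem hV2_c0 : allI (fun i => varOK D 2 i) 0 702 = true := by decide +kernel
theorem hV2_u0 : ∀ i, i < 702 → (fun i => varOK D 2 i) i = true :=
  allI_join allI_start hV2_c0 rfl
theorem hV2 : ∀ i, i < 702 → (fun i => varOK D 2 i) i = true := hV2_u0

end Cfsg.Agent.Lib.KnownSimple.G23Lab
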