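-- Generated: the letters of a Chevalley group.
import Cfsg.Agent.Lib.KnownSimple.G23Lab.Final
import Cfsg.Agent.S1059
import Cfsg.Agent.Lib.KnownSimple.LabField3
import Cfsg.Agent.Lib.Chev.All2

set_option autoImplicit false
set_option maxRecDepth 100000

namespace Cfsg.Agent.Lib.KnownSimple.G23Lab

open Cfsg.Agent.Lib.KnownSimple.Lab Cfsg.Agent.Lib.KnownSimple.LabMat Cfsg.Agent.Lib.KnownSimple.LabField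
open Cfsg.Agent.Lib.KnownSimple.LabVec Cfsg.Agent.Lib.KnownSimple.LabChev Cfsg.Lie Subgroup
open scoped Matrix

/-- The root elements, as sparse matrices. -/
def XSL : List (List (List (ℕ × ℕ))) := [[[(0,1),(13,2)],[(1,1),(13,1)],[(1,1),(2,1),(13,2)],[(3,1),(8,1)],[(4,1),(10,1)],[(5,1),(11,2)],[(6,1)],[(7,1),(12,2)],[(8,1)],[(9,1)],[(10,1)],[(11,1)],[(12,1)],[(13,1)]],
  [[(0,1),(13,1)],[(1,1),(13,2)],[(1,2),(2,1),(13,2)],[(3,1),(8,2)],[(4,1),(10,2)],[(5,1),(11,1)],[(6,1)],[(7,1),(12,1)],[(8,1)],[(9,1)],[(10,1)],[(11,1)],[(12,1)],[(13,1)]],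
  [[(0,1),(12,2)],[(1,1),(12,2)],[(2,1),(7,1)],[(1,2),(3,1),(12,2)],[(4,1),(9,1)],[(5,1)],[(6,1),(11,2)],[(7,1)],[(8,1),(13,2)],[(9,1)],[(10,1)],[(11,1)],[(12,1)],[(13,1)]],
  [[(0,1),(12,1)],[(1,1),(12,1)],[(2,1),(7,2)],[(1,1),(3,1),(12,2)],[(4,1),(9,2)],[(5,1)],[(6,1),(11,1)],[(7,1)],[(8,1),(13,1)],[(9,1)],[(10,1)],[(11,1)],[(12,1)],[(13,1)]],
  [[(0,1),(11,1)],[(1,1)],[(2,1),(12,1)],[(3,1),(13,2)],[(0,1),(4,1),(11,2)],[(5,1),(9,1),(12,1)],[(6,1),(10,2),(13,2)],[(7,1)],[(8,1)],[(9,1),(12,2)],[(10,1),(13,2)],[(11,1)],[(12,1)],[(13,1)]],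
  [[(0,1),(11,2)],[(1,1)],[(2,1),(12,2)],[(3,1),(13,1)],[(0,2),(4,1),(11,2)],[(5,1),(9,2),(12,1)],[(6,1),(10,1),(13,2)],[(7,1)],[(8,1)],[(9,1),(12,1)],[(10,1),(13,1)],[(11,1)],[(12,1)],[(13,1)]],
  [[(0,1),(10,2)],[(1,1)],[(2,1),(8,1)],[(3,1)],[(4,1),(6,1),(8,2)],[(0,2),(1,1),(5,1),(10,2)],[(6,1),(8,1)],[(7,1),(13,2)],[(8,1)],[(9,1),(11,2),(13,1)],[(10,1)],[(11,1),(13,1)],[(12,1)],[(13,1)]],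
  [[(0,1),(10,1)],[(1,1)],[(2,1),(8,2)],[(3,1)],[(4,1),(6,2),(8,2)],[(0,1),(1,2),(5,1),(10,2)],[(6,1),(8,2)],[(7,1),(13,1)],[(8,1)],[(9,1),(11,1),(13,1)],[(10,1)],[(11,1),(13,2)],[(12,1)],[(13,1)]],
  [[(0,1),(9,2)],[(1,1)],[(2,1)],[(3,1),(7,2)],[(4,1),(5,2),(7,1)],[(5,1),(7,1)],[(0,2),(1,2),(6,1),(9,2)],[(7,1)],[(8,1),(12,1)],[(9,1)],[(10,1),(11,1),(12,2)],[(11,1),(12,1)],[(12,1)],[(13,1)]],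
  [[(0,1),(9,1)],[(1,1)],[(2,1)],[(3,1),(7,1)],[(4,1),(5,1),(7,1)],[(5,1),(7,2)],[(0,1),(1,1),(6,1),(9,2)],[(7,1)],[(8,1),(12,2)],[(9,1)],[(10,1),(11,2),(12,2)],[(11,1),(12,2)],[(12,1)],[(13,1)]],
  [[(0,1)],[(1,1),(8,2)],[(2,1),(3,2)],[(3,1)],[(4,1)],[(5,1),(6,2)],[(6,1)],[(1,2),(7,1),(8,2)],[(8,1)],[(9,1),(10,1)],[(10,1)],[(11,1)],[(12,1),(13,1)],[(13,1)]],
  [[(0,1)],[(1,1),(8,1)],[(2,1),(3,1)],[(3,1)],[(4,1)],[(5,1),(6,1)],[(6,1)],[(1,1),(7,1),(8,2)],[(8,1)],[(9,1),(10,2)],[(10,1)],[(11,1)],[(12,1),(13,2)],[(13,1)]],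
  [[(0,1)],[(1,1),(7,1)],[(2,1)],[(2,2),(3,1)],[(4,1)],[(5,1)],[(5,2),(6,1)],[(7,1)],[(1,1),(7,2),(8,1)],[(9,1)],[(9,1),(10,1)],[(11,1)],[(12,1)],[(12,1),(13,1)]],
  [[(0,1)],[(1,1),(7,2)],[(2,1)],[(2,1),(3,1)],[(4,1)],[(5,1)],[(5,1),(6,1)],[(7,1)],[(1,2),(7,2),(8,1)],[(9,1)],[(9,2),(10,1)],[(11,1)],[(12,1)],[(12,2),(13,1)]],
  [[(0,1),(6,1)],[(1,1)],[(2,1)],[(3,1)],[(3,2),(4,1)],[(3,2),(4,2),(5,1)],[(6,1)],[(3,2),(7,1)],[(8,1)],[(0,1),(1,1),(6,2),(9,1)],[(8,2),(10,1)],[(8,1),(10,1),(11,1)],[(8,1),(12,1)],[(13,1)]],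
  [[(0,1),(6,2)],[(1,1)],[(2,1)],[(3,1)],[(3,1),(4,1)],[(3,2),(4,1),(5,1)],[(6,1)],[(3,1),(7,1)],[(8,1)],[(0,2),(1,2),(6,2),(9,1)],[(8,1),(10,1)],[(8,1),(10,2),(11,1)],[(8,2),(12,1)],[(13,1)]],
  [[(0,1),(5,1)],[(1,1)],[(2,1)],[(3,1)],[(2,2),(4,1)],[(5,1)],[(2,1),(4,1),(6,1)],[(7,1)],[(2,1),(8,1)],[(7,2),(9,1)],[(0,1),(1,2),(5,2),(10,1)],[(7,2),(9,2),(11,1)],[(12,1)],[(7,2),(13,1)]],
  [[(0,1),(5,2)],[(1,1)],[(2,1)],[(3,1)],[(2,1),(4,1)],[(5,1)],[(2,1),(4,2),(6,1)],[(7,1)],[(2,2),(8,1)],[(7,1),(9,1)],[(0,2),(1,1),(5,2),(10,1)],[(7,2),(9,1),(11,1)],[(12,1)],[(7,1),(13,1)]],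
  [[(0,1),(4,2)],[(1,1)],[(2,1)],[(3,1)],[(4,1)],[(2,1),(5,1)],[(3,1),(6,1)],[(7,1)],[(8,1)],[(2,2),(5,1),(9,1)],[(3,1),(6,2),(10,1)],[(0,2),(4,2),(11,1)],[(2,1),(12,1)],[(3,2),(13,1)]],
  [[(0,1),(4,1)],[(1,1)],[(2,1)],[(3,1)],[(4,1)],[(2,2),(5,1)],[(3,2),(6,1)],[(7,1)],[(8,1)],[(2,2),(5,2),(9,1)],[(3,1),(6,1),(10,1)],[(0,1),(4,2),(11,1)],[(2,2),(12,1)],[(3,1),(13,1)]],
  [[(0,1),(3,1)],[(1,1),(3,1)],[(2,1)],[(3,1)],[(4,1)],[(5,1)],[(6,1)],[(2,1),(7,1)],[(8,1)],[(4,1),(9,1)],[(10,1)],[(6,2),(11,1)],[(1,1),(3,2),(12,1)],[(8,2),(13,1)]],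
  [[(0,1),(3,2)],[(1,1),(3,2)],[(2,1)],[(3,1)],[(4,1)],[(5,1)],[(6,1)],[(2,2),(7,1)],[(8,1)],[(4,2),(9,1)],[(10,1)],[(6,1),(11,1)],[(1,2),(3,2),(12,1)],[(8,1),(13,1)]],
  [[(0,1),(2,1)],[(1,1),(2,2)],[(2,1)],[(3,1)],[(4,1)],[(5,1)],[(6,1)],[(7,1)],[(3,1),(8,1)],[(9,1)],[(4,1),(10,1)],[(5,2),(11,1)],[(7,2),(12,1)],[(1,2),(2,2),(13,1)]],
  [[(0,1),(2,2)],[(1,1),(2,1)],[(2,1)],[(3,1)],[(4,1)],[(5,1)],[(6,1)],[(7,1)],[(3,2),(8,1)],[(9,1)],[(4,2),(10,1)],[(5,1),(11,1)],[(7,1),(12,1)],[(1,1),(2,2),(13,1)]]]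

/-- The root elements, as sparse matrices. -/
def XS (r c : ℕ) : List (List (ℕ × ℕ)) := XSL.getD (r * 2 + c - 1) []

/-- Words for the root elements. -/
def TWL : List (List ℕ) := [[1, 0, 1, 2, 1, 0, 3, 2, 3, 0, 1, 2, 3, 0, 1, 0, 1, 0, 1, 1], [1, 0, 3, 0, 3, 0, 1, 2, 3, 0, 1, 2, 1, 0, 3, 2, 3, 0, 1, 1], [2, 3, 0, 1, 2, 1, 2, 1, 2, 3, 2, 1, 2, 1, 2, 3, 0, 1], [3, 2, 1, 0, 1, 0, 1, 0, 3, 0, 1, 0, 1, 0, 3, 2, 1, 0], [1, 2, 1, 0, 1, 2, 1, 2, 3, 2, 3, 0, 3, 0, 1, 0, 1, 2, 1, 0, 1], [3, 2, 3, 0, 3, 2, 3, 2, 1, 2, 1, 0, 1, 0, 3, 0, 3, 2, 3, 0, 3], [1, 0, 1, 2, 1, 2, 3, 2, 3, 2, 1, 2, 1, 2, 3, 2, 3, 0, 3], [1, 2, 1, 0, 1, 0, 3, 0, 3, 0, 1, 0, 1, 0, 3, 0, 3, 2, 3], [1, 0, 1, 2, 1, 2, 3, 0, 1, 2, 3, 0, 3, 0, 1, 2, 1, 0, 3, 0, 3, 0, 3, 0], [3, 0, 3, 2, 3, 2, 1, 0, 3, 2, 1, 0,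 1, 0, 3, 2, 3, 0, 1, 0, 1, 0, 1, 0], [3, 2, 3, 0, 1, 2, 3, 0, 1, 0, 3, 2, 1, 0], [2, 3, 0, 1, 2, 3, 2, 1, 0, 3, 2, 1, 0, 1], [1, 2, 3, 0, 1, 2, 3, 2, 1, 0, 3, 2, 1, 0], [3, 2, 1, 0, 3, 2, 1, 2, 3, 0, 1, 2, 3, 0], [0, 3, 2, 1, 2, 1, 2, 3, 2, 1, 2, 1, 2, 1, 0], [2, 3, 0, 1, 0, 1, 0, 3, 0, 1, 0, 1, 0, 1, 2], [3, 0, 1, 2, 1, 2, 1, 2, 3, 2, 1, 2, 1, 2, 3, 0, 1], [3, 2, 1, 0, 1, 0, 1, 0, 3, 0, 1, 0, 1, 0, 3, 2, 1], [0, 3, 2, 1, 2, 3, 2, 3, 2, 3, 2, 1, 2, 3, 0], [0, 1, 2, 3, 2, 1, 2, 1, 2, 1, 2, 3, 2, 1, 0], [1, 2, 3, 0, 1, 2, 3, 0, 3, 2, 1, 0, 3, 2], [1, 0, 3, 2, 1, 0, 3, 2, 3, 0, 1, 2, 3, 0], [1, 2, 1, 0, 3, 2, 1, 0, 1, 2, 1, 1, 2, 1, 0, 1], [3, 2, 3, 0, 1, 2, 3, 0, 3, 2, 1, 0, 3, 2, 1, 1]]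

/-- Words for the root elements. -/
def TW (r c : ℕ) : List ℕ := TWL.getD (r * 2 + c - 1) []

/-- The root elements used. -/
def RL : List (ℕ × ℕ) := [(8, 1), (1, 2), (9, 2), (5, 2), (6, 1), (1, 1), (8, 2), (6, 2), (5, 1), (9, 1)]

/-- The root elements used. -/
def SL : List (List (List (ℕ × ℕ))) := RL.map fun p => XS p.1 p.2

/-- The letters. -/
def LW (a : ℕ) : List ℕ := ([[0, 1], [2, 3, 4], [5, 6], [7, 8, 9]] : List (List ℕ)).getD a []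

/-- The code of an integer. -/
def ic (z : ℤ) : ℕ := icC 3 z

/-- The base. -/
def Bc : List ℕ := [0, 0, 0, 0, 0, 1, 0, 0, 2, 1, 0, 0, 1, 0, 0, 0, 0, 0, 0, 2, 0, 0, 2, 2, 0, 2, 0, 0, 1, 1, 1, 1, 1, 1, 1, 1, 1, 1, 2, 1, 1, 1, 0, 2, 0, 0, 0, 0, 2, 2, 2, 2, 0, 0, 0, 0, 0, 0, 2, 0, 0, 0, 1, 0, 0, 0, 2, 2, 2, 2, 0, 0, 0, 1, 0, 0, 1, 1, 0, 0, 0, 2, 1, 0, 0, 0, 1, 0, 0, 0, 0, 2, 0, 0, 2, 1, 1, 1, 0, 0, 0, 0, 1, 0, 1, 0, 1, 0, 0, 2, 0, 1, 0, 0, 1, 0, 0, 0, 0, 0, 0, 2, 1, 1, 1, 1, 0, 0, 0, 2, 0, 0, 0, 2, 0, 0, 0, 0, 2, 2, 0, 0, 0, 0, 0, 0, 0, 2, 0, 0, 0, 0, 2, 0, 0, 0, 0, 0, 0, 0, 0, 0, 0, 0, 0, 0, 1, 2, 0, 0, 0, 1, 0, 0, 0, 1, 1, 0, 0, 0, 1, 0, 0, 0, 0, 0, 0, 2, 0, 1, 0, 2, 0, 0, 0, 2]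

/-- The inverse of the base. -/
def Cc : List ℕ := [0, 2, 1, 1, 2, 2, 2, 2, 2, 0, 2, 0, 0, 2, 2, 2, 0, 2, 1, 1, 0, 0, 1, 1, 1, 2, 0, 0, 2, 2, 0, 0, 1, 2, 2, 0, 0, 0, 1, 1, 1, 0, 2, 0, 0, 0, 0, 0, 0, 0, 0, 1, 0, 0, 2, 2, 0, 0, 0, 0, 0, 2, 0, 1, 0, 1, 0, 0, 2, 0, 2, 1, 0, 0, 1, 2, 0, 0, 1, 2, 0, 1, 0, 0, 2, 2, 0, 0, 0, 1, 0, 0, 0, 2, 0, 1, 1, 0, 2, 0, 0, 0, 0, 0, 0, 0, 0, 2, 1, 2, 2, 2, 1, 0, 0, 0, 0, 0, 0, 0, 0, 2, 1, 0, 2, 1, 2, 2, 0, 0, 2, 1, 0, 0, 2, 2, 0, 1, 1, 0, 0, 1, 0, 0, 1, 2, 1, 0, 0, 0, 1, 1, 1, 2, 1, 2, 0, 0, 0, 0, 0, 0, 0, 0, 2, 1, 0, 2, 1, 0, 0, 0, 0, 0, 0, 0, 0, 1, 1, 1, 1, 1, 1, 0, 0, 0, 0, 0, 0, 0, 0, 1, 1, 0, 1, 1]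

theorem c_RL : ∀ j < RL.length, (RL.getD j (0, 0)).1 < chevG2.nroots ∧
    chkX add3 mul3 ic chevG2 (RL.getD j (0, 0)).1 (RL.getD j (0, 0)).2 (SL.getD j []) = true := by decide +kernel

theorem c_LWl : ∀ a < 4, ∀ j ∈ LW a, j < RL.length := by decide +kernel

theorem hVchk : allI (fun a => allI (fun i => Nat.blt (V a i) 728 &&
    (wordS add3 mul3 SL (LW a) (pt i) == pt (V a i))) 0 728) 0 4 = true := by decide +kernel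

theorem c_BC : mulC add3 mul3 (dd chevG2) Bc Cc = idC (dd chevG2) := by decide +kernel

theorem c_bs : ∀ j < dd chevG2, bsL.getD j 0 < 728 ∧ pt (bsL.getD j 0) = colC (dd chevG2) Bc j := by decide +kernel

theorem c_X : ∀ r < chevG2.nroots, ∀ c < 3, c = 0 ∨ (chkX add3 mul3 ic chevG2 r c (XS r c) = true ∧
    (∀ a ∈ TW r c, a < 4) ∧ ∀ j < dd chevG2, actS add3 mul3 (XS r c) (pt (bsL.getD j 0)) =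
      pt (walk V (TW r c) (bsL.getD j 0))) := by decide +kernel

theorem c_chkinv : ∀ a < 2, chk [a + 2, a] = true := by decide +kernel

/-- The multiplier of the group. -/
theorem result {F : Type*} [Field F] [Fintype F] (hF : Fintype.card F = 3) :
    Cfsg.HasSchurMultiplier ↥(chevG2.group F) (Multiplicative (ZMod 3)) := by
  classical
  obtain ⟨R⟩ := exists_rep3 hF
  have hp : ((3 : ℕ) : F) = 0 := char_of_pow (p := 3) (e := 1) (by rw [hF]; norm_num)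
  have hic : ∀ z : ℤ, R.φ (ic z) = (z : F) := by
    refine icC_val (p := 3) (by norm_num) hp ?_
    intro n hn
    interval_cases n
    · simpa using R.h0
    · simpa using R.h1
    · have h := R.hadd 1 1
      rw [show add3 1 1 = 2 by decide +kernel, R.h1] at h
      rw [h]
      norm_num
  set γ : ℕ → ↥(chevG2.group F) := chLetter Cfsg.Agent.Lib.Chev.TabG2.good2 R.φ RL LW with hγ
  have hV' : ∀ a < 4, ∀ i < 728, V a i < 728 ∧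
      chHom chevG2 F (γ a) *ᵥ toV R.φ (dd chevG2) (pt i) = toV R.φ (dd chevG2) (pt (V a i)) := by
    intro a ha i hi
    have h1 := of_allI hVchk a (Nat.zero_le _) (by omega)
    have h2 := of_allI h1 i (Nat.zero_le _) (by omega)
    simp only [Bool.and_eq_true, Nat.blt_eq, beq_iff_eq] at h2
    refine ⟨h2.1, ?_⟩
    rw [hγ, chLetter, wordS_val Cfsg.Agent.Lib.Chev.TabG2.good2 R hic c_RL (LW a) (c_LWl a ha), h2.2]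
  have heq : ∀ w : List ℕ, (∀ a ∈ w, a < 4) → chk w = true → wval γ w = 1 := by
    intro w hw h
    refine ch_eq_one R Bc Cc c_BC V pt 728 hV' (fun j => bsL.getD j 0) c_bs w hw ?_
    intro j hj
    have hj' : j < bsL.length := hj
    have h1 : bsL.getD j 0 ∈ bsL := by
      rw [List.getD_eq_getElem _ _ hj']
      exact List.getElem_mem hj'
    exact Nat.eq_of_beq_eq_true (List.all_eq_true.mp h _ h1)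
  have hinv : ∀ a < 2, γ (a + 2) = (γ a)⁻¹ := by
    intro a ha
    have h1 := heq [a + 2, a] (by
      intro b hb
      simp only [List.mem_cons, List.not_mem_nil, or_false] at hb
      omega) (c_chkinv a ha)
    simp only [wval_cons, wval_nil, mul_one] at h1
    exact eq_inv_of_mul_eq_one_left h1
  have hclo := ch_closure R Cfsg.Agent.Lib.Chev.TabG2.good2 hic Bc Cc c_BC V pt 728 hV' (fun j => bsL.getD j 0) c_bs XS TW c_X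
  refine main γ hinv hclo heq ?_
  rw [Cfsg.Agent.S1059.result hF]
  norm_num

end Cfsg.Agent.Lib.KnownSimple.G23Lab
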